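import Cfsg.Agent.H103.R2.SpSt
import Cfsg.Agent.H193.SZ.GOne
import Cfsg.Agent.H637.CY.GTwo

/-!
# The Steinberg character of `PSp_4(q)`, `q` even, at a field automorphism of order two, closed form (helper103)

`exists_st` : `exists_st_of` with (G1) = `H193.SZ.gOne`, (G2) = `H637.CY.gTwo`.
-/

set_option autoImplicit false
set_option linter.unusedSectionVars false

namespace Cfsg.Agent.H103.R2

open Cfsg

/-- **the extension of the Steinberg character at the involutory field automorphism** -/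
theorem exists_st_two {F : Type} [Field F] [Fintype F] [CharP F 2] {σ : F ≃+* F} (h2 : σ * σ = 1) (h1 : σ ≠ 1)
    (h5 : 5 ∣ Fintype.card F + 1) {A' : Type*} [Group A'] [Finite A'] (f : PSp 2 F →* A')
    (ψ : A' →* MulAut (PSp 2 F)) (hψ : ∀ s, ψ (f s) = MulAut.conj s) (x : A') (hx : ψ x = H206.PspFix.phi 2 F σ) :
    ∃ th : A' → ℤ, IsIrrCharacter A' (fun a => (th a : ℂ)) ∧ Even (th x) ∧ th x % 3 = 1 ∧
      ∀ t : PSp 2 F, H206.PspFix.phi 2 F σ t = t → t ≠ 1 → orderOf t ∣ Fintype.card F + 1 → th (x * f t) = 1 := by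
  have hW : Finite (CoxeterMatrix.B 2).Group := Cfsg.Agent.Nodes.TypeC.finite_W csB
  exact exists_st_of σ h2 (fun k y t ht ht1 hto => H193.SZ.gOne h2 h1 csB k y t ht ht1 hto)
    (H637.CY.gTwo csB h2 h1 h5) f ψ hψ x hx

end Cfsg.Agent.H103.R2
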